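import Cfsg.Agent.H341.T3Exc
import Cfsg.Agent.ClassicalGeometry.OrthAutSylow
import Cfsg.Agent.LieClassical.QuadCount
import Cfsg.Agent.LieClassical.OrthFinite
import Cfsg.Agent.S2604

/-!
# The rows S3337 and S3368: `Ω₇(3)` (helper838)

The centralizer of a long root element of `Ω₇(3)` has order at most `24 · 4 · 3^8`: the elements commuting with
`T x u` permute the 24 pairs `(x', u')` with `T x' u' = T x u`.
-/

set_option autoImplicit false

namespace Cfsg.Agent.H838.El3Orth

open Cfsg Subgroup QuadraticMap H349.T3 H128.Char3 Cfsg.Agent.LieClassical.OrthCore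
  Cfsg.Agent.LieClassical.OrthTrans Cfsg.Agent.LieClassical.OrthSimple
  Cfsg.Agent.ClassicalGeometry.OrthAutBasic Cfsg.Agent.ClassicalGeometry.OrthAutRoot
  Cfsg.Agent.ClassicalGeometry.OrthAutSylow

/-! ### counting -/

theorem card_le {A : Type*} [Group A] [Finite A] {H K : Subgroup A} {Y : Type*} [Finite Y] (f : A → Y)
    (h : ∀ g ∈ H, ∀ g' ∈ H, f g = f g' → g⁻¹ * g' ∈ K) : Nat.card H ≤ Nat.card Y * Nat.card K := by
  classical
  rw [← Nat.card_prod]
  have hr : ∀ y : Y, ∃ r : A, (∃ g ∈ H, f g = y) → r ∈ H ∧ f r = y := by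
    intro y
    by_cases hy : ∃ g ∈ H, f g = y
    · obtain ⟨g, h1, h2⟩ := hy
      exact ⟨g, fun _ => ⟨h1, h2⟩⟩
    · exact ⟨1, fun h => absurd h hy⟩
  choose r hr using hr
  have hr' : ∀ g ∈ H, r (f g) ∈ H ∧ f (r (f g)) = f g := fun g hg => hr (f g) ⟨g, hg, rfl⟩
  have hk : ∀ g ∈ H, (r (f g))⁻¹ * g ∈ K := fun g hg => h _ (hr' g hg).1 g hg (hr' g hg).2
  refine Nat.card_le_card_of_injective (fun g : H => ((f g, ⟨(r (f g))⁻¹ * g, hk g g.2⟩) : Y × K)) ?_
  intro g g' hgg
  have h1 : f g = f g' := congrArg Prod.fst hgg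
  have h2 : (r (f g))⁻¹ * (g : A) = (r (f g'))⁻¹ * g' := congrArg (fun p : Y × K => (p.2 : A)) hgg
  rw [h1] at h2
  exact Subtype.ext (mul_left_cancel h2)

theorem le_card {A : Type*} [Group A] [Finite A] {H K : Subgroup A} {Y : Type*} (hKH : K ≤ H) (r : Y → A)
    (hr : ∀ y, r y ∈ H) (h : ∀ y y', (r y)⁻¹ * r y' ∈ K → y = y') : Nat.card Y * Nat.card K ≤ Nat.card H := by
  rw [← Nat.card_prod]
  refine Nat.card_le_card_of_injective (fun p : Y × K => (⟨r p.1 * p.2, H.mul_mem (hr p.1) (hKH p.2.2)⟩ : H)) ?_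
  rintro ⟨y, k⟩ ⟨y', k'⟩ hp
  have h1 : r y * (k : A) = r y' * k' := congrArg Subtype.val hp
  have h2 : (r y)⁻¹ * r y' = k * (k' : A)⁻¹ := by
    rw [inv_mul_eq_iff_eq_mul, ← mul_assoc, h1, mul_inv_cancel_right]
  obtain rfl : y = y' := h y y' (by rw [h2]; exact K.mul_mem k.2 (K.inv_mem k'.2))
  exact Prod.ext rfl (Subtype.ext (mul_left_cancel h1))

/-! ### the centralizer of a long root element -/

section Geo

variable {F V : Type*} [Field F] [Finite F] [AddCommGroup V] [Module F V] [Finite V] {Q : QuadraticForm F V}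

theorem cent_le (hB : Big Q) {x u : V} (h : Ln Q x u) :
    Nat.card {v : V // v ≠ 0 ∧ Q v = 0} * Nat.card {v : V // Ln Q x v} *
      Nat.card (centralizer ({tau Q x u} : Set (PE Q))) ≤
    Nat.card (Matrix.SpecialLinearGroup (Fin 2) F) * Nat.card (PE Q) := by
  classical
  have hfinE : Finite (V ≃ₗ[F] V) := Finite.of_injective (fun g => (g : V → V)) DFunLike.coe_injective
  have hG := hB.good
  -- the groups
  let Gx : Subgroup ↥(E Q) :=
    { carrier := {g | (g : V ≃ₗ[F] V) x = x}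
      one_mem' := rfl
      mul_mem' := fun {a b} ha hb => by
        change (a : V ≃ₗ[F] V) ((b : V ≃ₗ[F] V) x) = x
        rw [show (b : V ≃ₗ[F] V) x = x from hb]
        exact ha
      inv_mem' := fun {a} ha => by
        change (a : V ≃ₗ[F] V).symm x = x
        rw [LinearEquiv.symm_apply_eq]
        exact (show (a : V ≃ₗ[F] V) x = x from ha).symm }
  let Gxu : Subgroup ↥(E Q) :=
    { carrier := {g | (g : V ≃ₗ[F] V) x = x ∧ (g : V ≃ₗ[F] V) u = u}
      one_mem' := ⟨rfl, rfl⟩
      mul_mem' := fun {a b} ha hb => by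
        refine ⟨?_, ?_⟩
        · change (a : V ≃ₗ[F] V) ((b : V ≃ₗ[F] V) x) = x
          rw [hb.1, ha.1]
        · change (a : V ≃ₗ[F] V) ((b : V ≃ₗ[F] V) u) = u
          rw [hb.2, ha.2]
      inv_mem' := fun {a} ha => by
        refine ⟨?_, ?_⟩
        · change (a : V ≃ₗ[F] V).symm x = x
          rw [LinearEquiv.symm_apply_eq]
          exact ha.1.symm
        · change (a : V ≃ₗ[F] V).symm u = u
          rw [LinearEquiv.symm_apply_eq]
          exact ha.2.symm }
  let C : Subgroup ↥(E Q) := (centralizer ({tau Q x u} : Set (PE Q))).comap (QuotientGroup.mk' (center ↥(E Q)))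
  have hC : ∀ g ∈ C, T Q ((g : V ≃ₗ[F] V) x) ((g : V ≃ₗ[F] V) u) = T Q x u := by
    intro g hg
    exact T_eq_of_comm hB g.2 (mem_centralizer_singleton_iff.1 hg)
  -- step 1
  have s1 : Nat.card {v : V // v ≠ 0 ∧ Q v = 0} * Nat.card Gx ≤ Nat.card (⊤ : Subgroup ↥(E Q)) := by
    have hr : ∀ v : {v : V // v ≠ 0 ∧ Q v = 0}, ∃ g : ↥(E Q), (g : V ≃ₗ[F] V) x = v := by
      intro v
      obtain ⟨g, hg, h1⟩ := hG.trans_sing h.qu v.2.2 h.ne v.2.1
      exact ⟨⟨g, hg⟩, h1⟩
    choose r hr using hr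
    refine le_card le_top r (fun _ => mem_top _) ?_
    intro y y' hy
    have h1 : (r y : V ≃ₗ[F] V).symm ((r y' : V ≃ₗ[F] V) x) = x := hy
    rw [LinearEquiv.symm_apply_eq, hr, hr] at h1
    exact (Subtype.ext h1).symm
  -- step 2
  have s2 : Nat.card {v : V // Ln Q x v} * Nat.card Gxu ≤ Nat.card Gx := by
    have hr : ∀ v : {v : V // Ln Q x v}, ∃ g : ↥(E Q), (g : V ≃ₗ[F] V) x = x ∧ (g : V ≃ₗ[F] V) u = v := by
      intro v
      obtain ⟨y, v1, z, w, hf⟩ := exists_frame hB h
      obtain ⟨y', v1', z', w', hf'⟩ := exists_frame hB v.2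
      obtain ⟨g, hg, h1, h2, -⟩ := hB.trans_triple h.qu h.ne hf.h2 hf.xu hf.xv h.qu h.ne hf'.h2 hf'.xu hf'.xv
      exact ⟨⟨g, hg⟩, h1, h2⟩
    choose r hr1 hr2 using hr
    refine le_card (fun g hg => hg.1) r hr1 ?_
    intro y y' hy
    have h1 : (r y : V ≃ₗ[F] V).symm ((r y' : V ≃ₗ[F] V) u) = u := hy.2
    rw [LinearEquiv.symm_apply_eq, hr2, hr2] at h1
    exact (Subtype.ext h1).symm
  -- step 3
  have s3 : Nat.card C ≤ Nat.card (Matrix.SpecialLinearGroup (Fin 2) F) * Nat.card Gxu := by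
    have hf : ∀ g : ↥(E Q), ∃ A : Matrix.SpecialLinearGroup (Fin 2) F, g ∈ C →
        (g : V ≃ₗ[F] V) x = A.1 0 0 • x + A.1 0 1 • u ∧ (g : V ≃ₗ[F] V) u = A.1 1 0 • x + A.1 1 1 • u := by
      intro g
      by_cases hg : g ∈ C
      · have h1 := hC g hg
        have h2 : Ln Q ((g : V ≃ₗ[F] V) x) ((g : V ≃ₗ[F] V) u) := h.map (E_le_O g.2)
        have h3 := D_T hB.nondeg h2
        rw [h1, D_T hB.nondeg h] at h3
        obtain ⟨a, b, e1⟩ := mem_L.1 (h3 ▸ left_mem_L (F := F) ((g : V ≃ₗ[F] V) x) ((g : V ≃ₗ[F] V) u))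
        obtain ⟨c, d, e2⟩ := mem_L.1 (h3 ▸ right_mem_L (F := F) ((g : V ≃ₗ[F] V) x) ((g : V ≃ₗ[F] V) u))
        have hdet : a * d - b * c = 1 := by
          rw [← e1, ← e2, T_det h] at h1
          obtain ⟨s, hs⟩ := (T_eq_T_iff hB.nondeg h.qu h.ne (by rw [polar_smul_right, h.perp, smul_zero]) h.perp).1 h1
          have h4 : s • x + (a * d - b * c - 1) • u = 0 := by
            have : s • x + (a * d - b * c - 1) • u = ((a * d - b * c) • u + s • x) - u := by module
            rw [this, ← hs, sub_self]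
          exact sub_eq_zero.1 (h.coeff h4).2
        refine ⟨⟨!![a, b; c, d], by rw [Matrix.det_fin_two_of]; exact hdet⟩, fun _ => ⟨?_, ?_⟩⟩
        · exact e1.symm
        · exact e2.symm
      · exact ⟨1, fun h => absurd h hg⟩
    choose f hf using hf
    refine card_le f ?_
    intro g hg g' hg' hgg
    obtain ⟨h1, h2⟩ := hf g hg
    obtain ⟨h3, h4⟩ := hf g' hg'
    rw [← hgg, ← h1] at h3
    rw [← hgg, ← h2] at h4
    refine ⟨?_, ?_⟩
    · change (g : V ≃ₗ[F] V).symm ((g' : V ≃ₗ[F] V) x) = x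
      rw [LinearEquiv.symm_apply_eq, h3]
    · change (g : V ≃ₗ[F] V).symm ((g' : V ≃ₗ[F] V) u) = u
      rw [LinearEquiv.symm_apply_eq, h4]
  -- the quotient
  have s4 : Nat.card ↥(E Q) = Nat.card (PE Q) * Nat.card (center ↥(E Q)) :=
    card_eq_card_quotient_mul_card_subgroup _
  have s5 : Nat.card C = Nat.card (centralizer ({tau Q x u} : Set (PE Q))) * Nat.card (center ↥(E Q)) := by
    have h1 := index_comap_of_surjective (centralizer ({tau Q x u} : Set (PE Q)))
      (QuotientGroup.mk'_surjective (center ↥(E Q)))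
    have h2 := card_mul_index (centralizer ({tau Q x u} : Set (PE Q)))
    have h3 := card_mul_index C
    rw [show C.index = (centralizer ({tau Q x u} : Set (PE Q))).index from h1, s4, ← h2] at h3
    have h6 : 0 < (centralizer ({tau Q x u} : Set (PE Q))).index := Nat.pos_of_ne_zero index_ne_zero_of_finite
    apply Nat.eq_of_mul_eq_mul_right h6
    rw [h3]
    ring
  rw [card_top, s4] at s1
  have hZ : 0 < Nat.card (center ↥(E Q)) := Nat.card_pos
  have s6 : Nat.card {v : V // v ≠ 0 ∧ Q v = 0} * Nat.card {v : V // Ln Q x v} * Nat.card C ≤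
      Nat.card (Matrix.SpecialLinearGroup (Fin 2) F) * (Nat.card (PE Q) * Nat.card (center ↥(E Q))) := by
    calc Nat.card {v : V // v ≠ 0 ∧ Q v = 0} * Nat.card {v : V // Ln Q x v} * Nat.card C
        ≤ Nat.card {v : V // v ≠ 0 ∧ Q v = 0} * Nat.card {v : V // Ln Q x v} *
          (Nat.card (Matrix.SpecialLinearGroup (Fin 2) F) * Nat.card Gxu) := Nat.mul_le_mul_left _ s3
      _ = Nat.card (Matrix.SpecialLinearGroup (Fin 2) F) * (Nat.card {v : V // v ≠ 0 ∧ Q v = 0} *
          (Nat.card {v : V // Ln Q x v} * Nat.card Gxu)) := by ring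
      _ ≤ Nat.card (Matrix.SpecialLinearGroup (Fin 2) F) * (Nat.card {v : V // v ≠ 0 ∧ Q v = 0} * Nat.card Gx) :=
          Nat.mul_le_mul_left _ (Nat.mul_le_mul_left _ s2)
      _ ≤ _ := Nat.mul_le_mul_left _ s1
  rw [s5] at s6
  apply Nat.le_of_mul_le_mul_right _ hZ
  calc _ = Nat.card {v : V // v ≠ 0 ∧ Q v = 0} * Nat.card {v : V // Ln Q x v} *
      (Nat.card (centralizer ({tau Q x u} : Set (PE Q))) * Nat.card (center ↥(E Q))) := by ring
    _ ≤ _ := s6
    _ = _ := by ring

/-- a long root element is `p`-central -/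
theorem sylow_cent (hB : Big Q) {x u : V} (h : Ln Q x u) (p : ℕ) [hp : Fact p.Prime] [CharP F p] {k : ℕ}
    (hk : p ^ k ∣ Nat.card (PE Q)) : p ^ k ∣ Nat.card (centralizer ({tau Q x u} : Set (PE Q))) := by
  have hfinE : Finite (V ≃ₗ[F] V) := Finite.of_injective (fun g => (g : V → V)) DFunLike.coe_injective
  obtain ⟨P, hPx, hPu, -, -⟩ := exists_sylow hB h p
  let π : ↥(E Q) →* PE Q := QuotientGroup.mk' _
  have hπ : Function.Surjective π := QuotientGroup.mk'_surjective _
  let P1 : Sylow p (PE Q) := P.mapSurjective hπ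
  have hle : (P1 : Subgroup (PE Q)) ≤ centralizer ({tau Q x u} : Set (PE Q)) := by
    rintro δ ⟨⟨g, hgE⟩, hg, rfl⟩
    rw [mem_centralizer_singleton_iff]
    have hgx : g x = x := hPx _ hg
    obtain ⟨d, hd⟩ := hPu _ hg
    have hgu : g u = u + d • x := hd
    have h1 : T Q (g x) (g u) = T Q x u := by
      rw [hgu, hgx, T_add_smul h.qu h.perp]
    exact comm_of_T_eq hgE h1
  have h1 : p ^ k ∣ Nat.card P1 := by
    rw [P1.card_eq_multiplicity]
    exact pow_dvd_pow p ((hp.out.pow_dvd_iff_le_factorization Nat.card_pos.ne').1 hk)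
  exact h1.trans (card_dvd_of_le hle)

end Geo

/-! ### counting over the field of three elements -/

section Three

variable {F : Type*} [Field F] [Fintype F]

open Cfsg.Agent.LieClassical.QuadCount Cfsg.Agent.LieClassical.OrthForms

theorem zeros (m : ℕ) : Nat.card {p : (Fin m ⊕ Fin m → F) × F // quadFormPlus m F p.1 + p.2 ^ 2 = 0} =
    Fintype.card F ^ (2 * m) := by
  classical
  have h1 := card_sum (F := F) m (W := F) (fun c => c ^ 2)
  have h2 : Nat.card {w : F // w ^ 2 = 0} = 1 := by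
    rw [Nat.card_eq_one_iff_unique]
    refine ⟨⟨?_⟩, ⟨⟨0, by simp⟩⟩⟩
    rintro ⟨a, ha⟩ ⟨b, hb⟩
    apply Subtype.ext
    rw [pow_eq_zero_iff (by norm_num)] at ha hb
    exact ha.trans hb.symm
  rw [h2] at h1
  have hq : 0 < Fintype.card F := Fintype.card_pos
  apply Nat.eq_of_mul_eq_mul_left hq
  have h3 : Fintype.card F * Fintype.card F ^ m = 1 * Fintype.card F ^ (m + 1) := by ring
  omega

theorem card_sub_one {A : Type*} [Finite A] [Zero A] (P : A → Prop) :
    Nat.card {a : A // P a} ≤ Nat.card {a : A // a ≠ 0 ∧ P a} + 1 := by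
  classical
  rw [← Finite.card_option]
  refine Nat.card_le_card_of_injective
    (fun a => if h : a.1 = 0 then none else some ⟨a.1, h, a.2⟩) ?_
  rintro ⟨a, ha⟩ ⟨b, hb⟩ hab
  apply Subtype.ext
  by_cases h1 : a = 0 <;> by_cases h2 : b = 0
  · exact h1.trans h2.symm
  · simp [h1, h2] at hab
  · simp [h1, h2] at hab
  · simp only [dif_neg h1, dif_neg h2, Option.some.injEq, Subtype.mk.injEq] at hab
    exact hab

theorem count_one (m : ℕ) :
    Fintype.card F ^ (2 * m) ≤ Nat.card {v : Unit ⊕ (Fin m ⊕ Fin m) → F // v ≠ 0 ∧ oddForm m F v = 0} + 1 := by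
  classical
  refine le_trans ?_ (card_sub_one _)
  rw [← zeros m]
  refine Nat.card_le_card_of_injective (fun p => ⟨Sum.elim (fun _ => p.1.2) p.1.1, ?_⟩) ?_
  · rw [coe_oddForm]
    have h := p.2
    change p.1.2 ^ 2 + quadFormPlus m F p.1.1 = 0
    rw [add_comm]
    exact h
  · rintro ⟨⟨a, b⟩, h⟩ ⟨⟨a', b'⟩, h'⟩ hab
    have h1 := congrArg Subtype.val hab
    apply Subtype.ext
    refine Prod.ext ?_ ?_
    · funext i
      exact congrFun h1 (.inr i)
    · exact congrFun h1 (.inl ())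

/-- the base point -/
def x0 (m : ℕ) (F : Type*) [Field F] : Unit ⊕ (Fin (m + 1) ⊕ Fin (m + 1)) → F := Pi.single (.inr (.inl 0)) 1

/-- vectors orthogonal to the base point -/
def mkv {m : ℕ} (a : F) (p : (Fin m ⊕ Fin m → F) × F) : Unit ⊕ (Fin (m + 1) ⊕ Fin (m + 1)) → F :=
  Sum.elim (fun _ => p.2) (Sum.elim (Fin.cons a fun i => p.1 (.inl i)) (Fin.cons 0 fun i => p.1 (.inr i)))

omit [Fintype F] in
theorem mkv_ln {m : ℕ} (a : F) {p : (Fin m ⊕ Fin m → F) × F} (hp : p ≠ 0)
    (h : quadFormPlus m F p.1 + p.2 ^ 2 = 0) : Ln (oddForm (m + 1) F) (x0 m F) (mkv a p) where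
  qu := by
    rw [coe_oddForm, quadFormOdd_apply]
    simp [x0]
  qw := by
    rw [coe_oddForm, quadFormOdd_apply, Fin.sum_univ_succ, ← h, quadFormPlus_apply]
    simp [mkv]
    ring
  perp := by
    rw [polar_oddForm, Fin.sum_univ_succ]
    simp [x0, mkv]
  ne := by
    intro h0
    have := congrFun h0 (.inr (.inl 0))
    rw [x0, Pi.single_eq_same] at this
    exact one_ne_zero this
  ind := by
    intro c hc
    apply hp
    refine Prod.ext ?_ ?_
    · funext i
      rcases i with i | i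
      · have := congrFun hc (.inr (.inl i.succ))
        simpa [mkv, x0] using this
      · have := congrFun hc (.inr (.inr i.succ))
        simpa [mkv, x0] using this
    · have := congrFun hc (.inl ())
      simpa [mkv, x0] using this

theorem count_two (m : ℕ) :
    Fintype.card F * (Fintype.card F ^ (2 * m) - 1) ≤
      Nat.card {v : Unit ⊕ (Fin (m + 1) ⊕ Fin (m + 1)) → F // Ln (oddForm (m + 1) F) (x0 m F) v} := by
  classical
  have h1 : Fintype.card F ^ (2 * m) ≤
      Nat.card {p : (Fin m ⊕ Fin m → F) × F // p ≠ 0 ∧ quadFormPlus m F p.1 + p.2 ^ 2 = 0} + 1 := by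
    rw [← zeros m]
    exact card_sub_one _
  have h2 : Nat.card (F × {p : (Fin m ⊕ Fin m → F) × F // p ≠ 0 ∧ quadFormPlus m F p.1 + p.2 ^ 2 = 0}) ≤
      Nat.card {v : Unit ⊕ (Fin (m + 1) ⊕ Fin (m + 1)) → F // Ln (oddForm (m + 1) F) (x0 m F) v} := by
    refine Nat.card_le_card_of_injective (fun t => ⟨mkv t.1 t.2.1, mkv_ln t.1 t.2.2.1 t.2.2.2⟩) ?_
    rintro ⟨a, ⟨⟨b, c⟩, h⟩⟩ ⟨a', ⟨⟨b', c'⟩, h'⟩⟩ hab
    have h1 := congrArg Subtype.val hab
    refine Prod.ext ?_ (Subtype.ext (Prod.ext ?_ ?_))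
    · exact congrFun h1 (.inr (.inl 0))
    · funext i
      rcases i with i | i
      · have := congrFun h1 (.inr (.inl i.succ))
        simpa [mkv] using this
      · have := congrFun h1 (.inr (.inr i.succ))
        simpa [mkv] using this
    · exact congrFun h1 (.inl ())
  rw [Nat.card_prod, Nat.card_eq_fintype_card (α := F)] at h2
  refine le_trans (Nat.mul_le_mul_left _ ?_) h2
  omega

end Three

/-! ### the row -/

section Row

variable {F : Type} [Field F] [Fintype F]

open Cfsg.Agent.LieClassical.OrthForms Cfsg.Agent.LieClassical.OrthFinite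

theorem big (hF : Fintype.card F = 3) : Big (oddForm 3 F) where
  nondeg := nondeg_oddForm 3 F (by
    intro h
    obtain ⟨-, -, -, hchar⟩ := char_three (F := F) (by rw [hF])
    have h3 : (3 : F) = 0 := by exact_mod_cast CharP.cast_eq_zero F 3
    have : (1 : F) = 0 := by
      calc (1 : F) = 3 - 2 := by norm_num
        _ = 0 := by rw [h3, h, sub_zero]
    exact one_ne_zero this)
  dim := by
    rw [Module.finrank_fintype_fun_eq_card, Fintype.card_sum, Fintype.card_sum, Fintype.card_fin]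
    simp

theorem cent_eq {L : Type*} [Group L] {z : L} {k d m : ℕ} (h : Cand z k d m) {y : L} (hy : orderOf y = 3)
    (hc : 3 ^ k ∣ Nat.card (centralizer ({y} : Set L))) :
    Nat.card (centralizer ({y} : Set L)) = Nat.card (centralizer ({z} : Set L)) := by
  have key : ∀ x : L, IsConj y x → Nat.card (centralizer ({y} : Set L)) = Nat.card (centralizer ({x} : Set L)) := by
    intro x hx
    obtain ⟨c, hc⟩ := isConj_iff.1 hx
    rw [← H341.T3.card_centralizer_congr (MulAut.conj c) y, MulAut.conj_apply, hc]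
  have hinv : Nat.card (centralizer ({z⁻¹} : Set L)) = Nat.card (centralizer ({z} : Set L)) := by
    have : centralizer ({z⁻¹} : Set L) = centralizer ({z} : Set L) := by
      ext x
      rw [mem_centralizer_singleton_iff, mem_centralizer_singleton_iff]
      constructor
      · intro h1
        have h2 : Commute x z⁻¹ := h1
        exact Commute.inv_right_iff.1 h2
      · intro h1
        have h2 : Commute x z := h1
        exact h2.inv_right
    rw [this]
  rcases h.uniq y hy hc with h' | h'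
  · exact key _ h'
  · rw [key _ h', hinv]

theorem o73 (hF : Fintype.card F = 3) {z : POmega F (quadFormOdd 3 F)} {k d m : ℕ} (h : Cand z k d m) : False := by
  classical
  have : Fact (Nat.Prime 3) := ⟨Nat.prime_three⟩
  obtain ⟨-, -, -, hchar⟩ := char_three (F := F) (by rw [hF])
  have hcard : 2 * Nat.card (POmega F (quadFormOdd 3 F)) = 2 * 4585351680 := by
    rw [S0292.result hF (by decide) 3 le_rfl]
    simp [Finset.prod_range_succ]
  have hcard' : Nat.card (POmega F (quadFormOdd 3 F)) = 4585351680 := Nat.eq_of_mul_eq_mul_left (by norm_num) hcard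
  have hfin : Finite (POmega F (quadFormOdd 3 F)) := Nat.finite_of_card_ne_zero (by rw [hcard']; norm_num)
  have hk : k = 9 := by
    have h1 := h.dvd
    have h2 := h.kl
    have h3 := h.ku
    rw [hcard'] at h1
    interval_cases k
    · rfl
    · norm_num at h1
    · norm_num at h1
  have hd : d ∣ 2 := by
    have h1 := H341.T3.d_dvd_out h
    obtain ⟨e⟩ := S2604.result (F := F) (p := 3) (f := 1) (m := 3) le_rfl (by rw [hF, pow_one]) (by norm_num) le_rfl
    have h2 : Nat.card (Cfsg.Out (POmega F (quadFormOdd 3 F))) = 2 := by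
      rw [Nat.card_congr e.toEquiv]
      change Nat.card (ZMod 2 × ZMod 1) = 2
      rw [Nat.card_prod, Nat.card_zmod, Nat.card_zmod]
    rwa [h2] at h1
  subst hk
  have hB := big hF
  have hG := hB.good
  revert z
  rw [← coe_oddForm]
  rw [← coe_oddForm] at hcard' hfin
  intro z h
  let e : POmega F ⇑(oddForm 3 F) ≃* PE (oddForm 3 F) :=
    quotientCenterCongr ((omegaEquiv (oddForm 3 F)).trans (MulEquiv.subgroupCongr hG.commutator_eq_E))
  have h' := H341.T3.congr h e
  have hPE : Nat.card (PE (oddForm 3 F)) = 4585351680 := by rw [← Nat.card_congr e.toEquiv, hcard']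
  have hfinP : Finite (PE (oddForm 3 F)) := Nat.finite_of_card_ne_zero (by rw [hPE]; norm_num)
  have hL : Ln (oddForm 3 F) (x0 2 F) (mkv 0 (Pi.single (.inl 0) 1, 0)) := by
    apply mkv_ln
    · intro h0
      have := congrFun (congrArg Prod.fst h0) (.inl 0)
      simp at this
    · rw [quadFormPlus_apply]
      simp
  set u := mkv (m := 2) (0 : F) (Pi.single (.inl 0) 1, 0) with hu
  have hy : orderOf (tau (oddForm 3 F) (x0 2 F) u) = 3 := by
    apply orderOf_eq_prime
    · have h1 : polar (oddForm 3 F) (x0 2 F) (u + u) = 0 := by rw [polar_add_right, hL.perp, add_zero]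
      rw [pow_succ, pow_two, tau_mul hL.qu hL.perp hL.perp, tau_mul hL.qu h1 hL.perp]
      have h2 : u + u + u = 0 := by
        have h3 : (3 : F) = 0 := by exact_mod_cast CharP.cast_eq_zero F 3
        calc u + u + u = (3 : F) • u := by module
          _ = 0 := by rw [h3, zero_smul]
      rw [h2, tau_zero_right]
    · exact tau_ne_one hB hL
  have hc := sylow_cent hB hL 3 h'.dvd
  have heq := cent_eq h' hy hc
  have h1 := cent_le hB hL
  rw [heq] at h1 hc
  have h2 : 2 ^ 7 ∣ 2 * Nat.card (centralizer ({e z} : Set (PE (oddForm 3 F)))) :=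
    ((pow_dvd_pow 2 h'.m7).trans h'.two).trans (Nat.mul_dvd_mul_right hd _)
  have h3 : 2 ^ 6 ∣ Nat.card (centralizer ({e z} : Set (PE (oddForm 3 F)))) := by
    rw [show 2 ^ 7 = 2 * 2 ^ 6 by norm_num] at h2
    exact Nat.dvd_of_mul_dvd_mul_left (by norm_num) h2
  have h4 : 2 ^ 6 * 3 ^ 9 ≤ Nat.card (centralizer ({e z} : Set (PE (oddForm 3 F)))) :=
    Nat.le_of_dvd Nat.card_pos (Nat.Coprime.mul_dvd_of_dvd_of_dvd (by norm_num) h3 hc)
  have h5 := count_one (F := F) 3
  have h6 := count_two (F := F) 2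
  have h7 : Nat.card (Matrix.SpecialLinearGroup (Fin 2) F) = 24 := by
    have h8 := S0242.result hF 2 (by norm_num)
    rw [Fin.prod_univ_two] at h8
    have h9 : (3 - 1) * Nat.card (Matrix.SpecialLinearGroup (Fin 2) F) = (3 - 1) * 24 := by
      rw [h8]
      norm_num
    exact Nat.eq_of_mul_eq_mul_left (by norm_num) h9
  rw [hF] at h5 h6
  rw [h7, hPE] at h1
  have h8 : 728 ≤ Nat.card {v : Unit ⊕ (Fin 3 ⊕ Fin 3) → F // v ≠ 0 ∧ oddForm 3 F v = 0} := by omega
  have h9 : 240 ≤ Nat.card {v : Unit ⊕ (Fin 3 ⊕ Fin 3) → F // Ln (oddForm 3 F) (x0 2 F) v} := by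
    refine le_trans ?_ h6
    norm_num
  have h10 := Nat.mul_le_mul (Nat.mul_le_mul h8 h9) h4
  have h11 := h10.trans h1
  norm_num at h11

/-- odd-dimensional orthogonal groups in characteristic three -/
theorem oodd_three {n : ℕ} (hn : 3 ≤ n) (ho : Odd (Fintype.card F)) (hF : 3 ∣ Fintype.card F)
    {z : POmega F (quadFormOdd n F)} {k d m : ℕ} (h : Cand z k d m) : False := by
  obtain ⟨f, hf, hcard, hchar⟩ := char_three hF
  have hc := S0292.result (F := F) rfl ho n hn
  have hq1 : 1 ≤ Fintype.card F := Fintype.card_pos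
  have hr : ¬ 3 ∣ ∏ i ∈ Finset.range n, (Fintype.card F ^ (2 * (i + 1)) - 1) :=
    not_dvd_prod _ _ fun j _ => not_dvd_sub_one hF hq1 (by omega)
  have hb := H341.T3.val_eq h (by norm_num) hr hcard hc
  have hk := h.ku
  have hn3 : n ≤ 3 := by
    by_contra hcon
    have h1 : 4 * 4 ≤ n ^ 2 := by nlinarith
    nlinarith
  obtain rfl : n = 3 := by omega
  have hf1 : f = 1 := by
    have : f * 9 = k := hb
    omega
  exact o73 (by rw [hcard, hf1, pow_one]) h

end Row

end Cfsg.Agent.H838.El3Orth
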